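import Cfsg.Agent.Eq.Def_Blocks
import Cfsg.Agent.Blocks.Defect.InducedPair
import Cfsg.Agent.Blocks.Subsection.Major
import Cfsg.Agent.S0936

/-!
# Blocks of the centraliser of a large 2-subgroup

If every non-principal block of `G` has defect below `r` and `Q` is an abelian `p`-subgroup with
`p ^ r ≤ |Q|`, then the principal block is the only block of `C(Q)`.
-/

set_option autoImplicit false
set_option linter.style.haveILetI false

namespace CfsgLib.Deficiency

open Cfsg CfsgLib.Blocks

universe u

variable {G : Type u} [Group G] [Finite G] {p : ℕ} {M : Ideal AlgInt}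

theorem eq_principalBlock_centralizer [Fact p.Prime] (hM : IsPModular p M) {r : ℕ}
    (hdef : ∀ B : Set (IrrCharacter G), IsPBlock M B → B ≠ principalBlock M G →
      blockDefect p B < r)
    {Q : Subgroup G} (hQ : IsPGroup p Q) (hQC : Q ≤ Subgroup.centralizer (Q : Set G))
    (hcard : p ^ r ≤ Nat.card Q)
    {b : Set (IrrCharacter (Subgroup.centralizer (Q : Set G)))} (hb : IsPBlock M b) :
    b = principalBlock M (Subgroup.centralizer (Q : Set G)) := by
  haveI := isMaximal_of_isPModular hM
  haveI := charP_kres hM
  have hf : IsBlockIdem (Subgroup.centralizer (Q : Set G))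
      (subEl M (Subgroup.centralizer (Q : Set G)) b) := isBlockIdem_subEl hb
  obtain ⟨B, hB, hover⟩ := exists_block_of_pair hQ hf
  have hind : IsInducedBlock M (Subgroup.centralizer (Q : Set G)) b B :=
    (isInducedBlock_iff_brOver hM hQ hQC le_rfl (Subgroup.centralizer_le_normalizer _) hb hB).2 hover
  by_cases hBp : B = principalBlock M G
  · exact (Cfsg.Agent.S0936.result p M hM _ b ⟨B, hind⟩).1 (hBp ▸ hind)
  exfalso
  have he : IsBlockIdem ⊤ (topEl M B) := isBlockIdem_topEl hB
  obtain ⟨D, hD⟩ := he.exists_defectGroup p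
  have hne : brTrunc Q (topEl M B) ≠ 0 := fun h0 => by
    have h1 : brTrunc Q (topEl M B) * subEl M (Subgroup.centralizer (Q : Set G)) b =
        subEl M (Subgroup.centralizer (Q : Set G)) b := hover
    rw [h0, zero_mul] at h1
    exact hf.ne_zero h1.symm
  obtain ⟨x, -, hx⟩ := (brTrunc_ne_zero_iff he hD le_top hQ).1 hne
  have hle : Nat.card Q ≤ Nat.card D := by
    rw [← Subgroup.card_map_of_injective (K := Q) (f := (MulAut.conj x).toMonoidHom) (MulAut.conj x).injective]
    exact Subgroup.card_le_of_le hx
  rw [Contrib.natCard_defectGroup hM hB ((isDefectGroup_topEl_iff hB D).2 hD)] at hle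
  have h2 := (Nat.pow_le_pow_iff_right (Fact.out : p.Prime).one_lt).1 (hcard.trans hle)
  exact absurd (hdef B hB hBp) (not_lt.2 h2)

end CfsgLib.Deficiency
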