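import Mathlib
import Cfsg.Agent.Constrained.Basic

/-!
# Bounding a group by the centralisers of the involutions of a four-group

* `card_centralizer_quotient_le`: centralisers do not grow in quotients, up to the kernel;
* `card_odd_le`: an odd normal subgroup is bounded by the product of the three centralisers;
* `exists_bound`: a group with bounded Sylow 2-subgroup and a four-group whose involutions have
  centralisers of order at most `c` has bounded order.
-/

set_option autoImplicit false
set_option linter.style.haveILetI false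

namespace CfsgLib.Deficiency

universe u

/-- A fibrewise bound. -/
theorem card_le_mul_of_fibres {A : Type u} {G : Type u} [Group G] [Finite G] (f : A → G)
    (emb : A → G) (hemb : Function.Injective emb) (V : Set G) (C : Subgroup G)
    (hf : ∀ a, f a ∈ V) (hfib : ∀ a b, f a = f b → (emb a)⁻¹ * emb b ∈ C) :
    Nat.card A ≤ Nat.card V * Nat.card C := by
  classical
  by_cases hA : Nonempty A
  swap
  · haveI : IsEmpty A := not_nonempty_iff.1 hA
    simp
  rw [← Nat.card_prod]
  let r : A → A := fun a => Classical.epsilon fun b => f b = f a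
  have hr : ∀ a, f (r a) = f a := fun a => Classical.epsilon_spec (p := fun b => f b = f a) ⟨a, rfl⟩
  refine Nat.card_le_card_of_injective
    (fun a => ((⟨f a, hf a⟩, ⟨(emb (r a))⁻¹ * emb a, hfib _ _ (hr a)⟩) : V × C)) fun a b e => ?_
  obtain ⟨e1, e2⟩ := Prod.mk.inj e
  have e1' : f a = f b := congrArg Subtype.val e1
  have e2' : (emb (r a))⁻¹ * emb a = (emb (r b))⁻¹ * emb b := congrArg Subtype.val e2
  have hrr : r a = r b := by simp only [r, e1']
  rw [hrr] at e2'
  exact hemb (mul_left_cancel e2')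

section Quotient

variable {H : Type u} [Group H] [Finite H]

/-- The centraliser of an image. -/
theorem card_centralizer_quotient_le (N : Subgroup H) [N.Normal] (u : H) :
    Nat.card (Subgroup.centralizer ({(u : H ⧸ N)} : Set (H ⧸ N))) ≤
      Nat.card (Subgroup.centralizer ({u} : Set H)) := by
  set X := (Subgroup.centralizer ({(u : H ⧸ N)} : Set (H ⧸ N))).comap (QuotientGroup.mk' N) with hX
  have hcard : Nat.card X = Nat.card N * Nat.card (Subgroup.centralizer ({(u : H ⧸ N)} : Set (H ⧸ N))) := by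
    have hle : N ≤ X := fun y hy => by
      show QuotientGroup.mk' N y ∈ Subgroup.centralizer ({(u : H ⧸ N)} : Set (H ⧸ N))
      rw [show QuotientGroup.mk' N y = 1 from (QuotientGroup.eq_one_iff y).2 hy]
      exact Subgroup.one_mem _
    have e1 : N.relIndex X = Nat.card (Subgroup.centralizer ({(u : H ⧸ N)} : Set (H ⧸ N))) := by
      have h2 := Subgroup.relIndex_comap ⊥ (QuotientGroup.mk' N) X
      rw [MonoidHom.comap_bot, QuotientGroup.ker_mk', Subgroup.relIndex_bot_left] at h2
      rw [h2, hX, Subgroup.map_comap_eq_self_of_surjective (QuotientGroup.mk'_surjective _)]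
    have e2 := Subgroup.relIndex_mul_relIndex ⊥ N X bot_le hle
    rw [Subgroup.relIndex_bot_left, Subgroup.relIndex_bot_left, e1] at e2
    exact e2.symm
  have hle : Nat.card X ≤ Nat.card (N : Set H) * Nat.card (Subgroup.centralizer ({u} : Set H)) := by
    refine card_le_mul_of_fibres (fun x : X => u * (x : H) * u⁻¹ * (x : H)⁻¹) (fun x : X => (x : H))
      Subtype.val_injective _ _ (fun x => ?_) fun x y e => ?_
    · have hx : ((x : H) : H ⧸ N) * (u : H ⧸ N) = (u : H ⧸ N) * ((x : H) : H ⧸ N) :=
        Subgroup.mem_centralizer_singleton_iff.1 x.2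
      rw [SetLike.mem_coe, ← QuotientGroup.eq_one_iff]
      simp only [QuotientGroup.mk_mul, QuotientGroup.mk_inv]
      rw [← hx]
      group
    · rw [Subgroup.mem_centralizer_singleton_iff]
      have e' : u * (x : H) * u⁻¹ * (x : H)⁻¹ = u * (y : H) * u⁻¹ * (y : H)⁻¹ := e
      have e'' : (x : H) * u⁻¹ * (x : H)⁻¹ = (y : H) * u⁻¹ * (y : H)⁻¹ := by
        have := congrArg (fun t => u⁻¹ * t) e'
        simpa [mul_assoc] using this
      calc (x : H)⁻¹ * y * u = (x : H)⁻¹ * (x * u⁻¹ * (x : H)⁻¹)⁻¹ * y := by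
            rw [e'']; group
        _ = u * ((x : H)⁻¹ * y) := by group
  rw [hcard] at hle
  have hN : 0 < Nat.card N := Nat.card_pos
  exact Nat.le_of_mul_le_mul_left hle hN

/-- If an element dies in the quotient, the quotient is bounded by its centraliser. -/
theorem card_quotient_le_of_mem (N : Subgroup H) [N.Normal] {u : H} (hu : u ∈ N) :
    Nat.card (H ⧸ N) ≤ Nat.card (Subgroup.centralizer ({u} : Set H)) := by
  refine le_trans (le_of_eq ?_) (card_centralizer_quotient_le N u)
  rw [(QuotientGroup.eq_one_iff u).2 hu,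
    show Subgroup.centralizer ({(1 : H ⧸ N)} : Set (H ⧸ N)) = ⊤ from
      eq_top_iff.2 fun g _ => Subgroup.mem_centralizer_singleton_iff.2 (by rw [mul_one, one_mul]),
    Subgroup.card_top]

end Quotient

section Coprime

variable {K : Type u} [Group K] [Finite K]

/-- The fixed points of an automorphism. -/
def fixed (f : K ≃* K) : Subgroup K where
  carrier := {x | f x = x}
  one_mem' := map_one f
  mul_mem' {a b} ha hb := by
    show f (a * b) = a * b
    rw [map_mul, show f a = a from ha, show f b = b from hb]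
  inv_mem' {a} ha := by
    show f a⁻¹ = a⁻¹
    rw [map_inv, show f a = a from ha]

theorem mem_fixed {f : K ≃* K} {x : K} : x ∈ fixed f ↔ f x = x := Iff.rfl

theorem eq_one_of_mul_self_odd (hodd : ¬ 2 ∣ Nat.card K) {x : K} (h : x * x = 1) : x = 1 := by
  rw [← orderOf_eq_one_iff]
  have h2 : orderOf x ∣ 2 := orderOf_dvd_of_pow_eq_one (by rw [pow_two, h])
  rcases (Nat.dvd_prime Nat.prime_two).1 h2 with e | e
  · exact e
  · exact absurd (e ▸ orderOf_dvd_natCard x) hodd

/-- An involutory automorphism fixing a coset of an invariant subgroup of odd order fixes a point. -/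
theorem exists_fixed_lift (Z : Subgroup K) (hodd : ¬ 2 ∣ Nat.card Z) (f : K ≃* K)
    (hf : ∀ x, f (f x) = x) (hZ : ∀ z ∈ Z, f z ∈ Z) {y : K} (hy : y⁻¹ * f y ∈ Z) :
    ∃ x, f x = x ∧ y⁻¹ * x ∈ Z := by
  classical
  haveI := Fintype.ofFinite K
  have hmap : ∀ z : Z, y⁻¹ * f (y * z) ∈ Z := fun z => by
    rw [map_mul, ← mul_assoc]
    exact Z.mul_mem hy (hZ z z.2)
  let g : Z → Z := fun z => ⟨y⁻¹ * f (y * z), hmap z⟩
  have hg : Function.Involutive g := fun z => Subtype.ext (by
    show y⁻¹ * f (y * (y⁻¹ * f (y * (z : K)))) = (z : K)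
    rw [mul_inv_cancel_left, hf, inv_mul_cancel_left])
  by_contra hne
  push Not at hne
  have hfree : ∀ z, g z ≠ z := fun z e => by
    have e' : y⁻¹ * f (y * (z : K)) = (z : K) := congrArg Subtype.val e
    refine hne (y * z) ?_ (by rw [inv_mul_cancel_left]; exact z.2)
    rw [← mul_inv_cancel_left y (f (y * (z : K))), e']
  refine hodd ?_
  haveI : Fact (Nat.Prime 2) := ⟨Nat.prime_two⟩
  let σ : Equiv.Perm Z := hg.toPerm g
  have hσ : σ ^ 2 ^ 1 = 1 := Equiv.ext fun z => by
    rw [pow_one, pow_two, Equiv.Perm.mul_apply]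
    exact hg z
  by_contra hnd
  obtain ⟨z, hz⟩ := Equiv.Perm.exists_fixed_point_of_prime (p := 2) (n := 1)
    (by rwa [← Nat.card_eq_fintype_card]) hσ
  exact hfree z hz

/-- The three fixed-point maps are jointly injective on an invariant abelian subgroup of odd order. -/
theorem card_le_of_commute (Z : Subgroup K) (hodd : ¬ 2 ∣ Nat.card K)
    (hcomm : ∀ a ∈ Z, ∀ b ∈ Z, a * b = b * a) (f g : K ≃* K) (hf : ∀ x, f (f x) = x)
    (hg : ∀ x, g (g x) = x) (hfg : ∀ x, f (g x) = g (f x)) (hZf : ∀ z ∈ Z, f z ∈ Z)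
    (hZg : ∀ z ∈ Z, g z ∈ Z) :
    Nat.card Z ≤ Nat.card (fixed f ⊓ Z : Subgroup K) * Nat.card (fixed g ⊓ Z : Subgroup K) *
      Nat.card (fixed (f.trans g) ⊓ Z : Subgroup K) := by
  rw [← Nat.card_prod, ← Nat.card_prod]
  have hft : ∀ x, (f.trans g) ((f.trans g) x) = x := fun x => by
    show g (f (g (f x))) = x
    rw [hfg, hf, hg]
  have mem : ∀ (e : K ≃* K), (∀ x, e (e x) = x) → (∀ z ∈ Z, e z ∈ Z) → ∀ z : Z,
      (z : K) * e z ∈ fixed e ⊓ Z := fun e he hZe z => by
    refine ⟨?_, Z.mul_mem z.2 (hZe _ z.2)⟩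
    show e ((z : K) * e z) = (z : K) * e z
    rw [map_mul, he]
    exact hcomm _ (hZe _ z.2) _ z.2
  have hZt : ∀ z ∈ Z, (f.trans g) z ∈ Z := fun z hz => hZg _ (hZf _ hz)
  refine Nat.card_le_card_of_injective (fun z : Z =>
    (((⟨(z : K) * f z, mem f hf hZf z⟩, ⟨(z : K) * g z, mem g hg hZg z⟩),
      ⟨(z : K) * (f.trans g) z, mem _ hft hZt z⟩) :
      ((fixed f ⊓ Z : Subgroup K) × (fixed g ⊓ Z : Subgroup K)) ×
        (fixed (f.trans g) ⊓ Z : Subgroup K))) fun a b e => ?_
  obtain ⟨e12, e3⟩ := Prod.mk.inj e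
  obtain ⟨e1, e2⟩ := Prod.mk.inj e12
  have e1' : (a : K) * f a = (b : K) * f b := congrArg Subtype.val e1
  have e2' : (a : K) * g a = (b : K) * g b := congrArg Subtype.val e2
  have e3' : (a : K) * g (f a) = (b : K) * g (f b) := congrArg Subtype.val e3
  apply Subtype.ext
  -- the quotient of the two points is inverted by all three
  set d := (a : K)⁻¹ * b with hd
  have hdZ : d ∈ Z := Z.mul_mem (Z.inv_mem a.2) b.2
  have key : ∀ (e : K ≃* K), (∀ z ∈ Z, e z ∈ Z) → (a : K) * e a = (b : K) * e b → e d = d⁻¹ := by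
    intro e hZe he
    have h1 : e d = (e a)⁻¹ * e b := by rw [hd, map_mul, map_inv]
    have h2 : e b = (b : K)⁻¹ * ((a : K) * e a) := by rw [he, inv_mul_cancel_left]
    rw [h1, h2, hd, mul_inv_rev, inv_inv,
      show (b : K)⁻¹ * ((a : K) * e a) = (b : K)⁻¹ * a * e a from (mul_assoc _ _ _).symm,
      hcomm ((b : K)⁻¹ * a) (Z.mul_mem (Z.inv_mem b.2) a.2) (e a) (hZe _ a.2), inv_mul_cancel_left]
  have k1 := key f hZf e1'
  have k2 := key g hZg e2'
  have k3 := key (f.trans g) hZt e3'
  have k3' : g (f d) = d⁻¹ := k3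
  rw [k1, map_inv, k2, inv_inv] at k3'
  have h2 : d * d = 1 := by nth_rw 2 [k3']; exact mul_inv_cancel d
  exact inv_mul_eq_one.1 (eq_one_of_mul_self_odd hodd h2)

end Coprime

/-- The four-group bound for an `r`-group of odd order. -/
theorem card_le_fixed {r : ℕ} [Fact r.Prime] : ∀ (k : ℕ) (K : Type u) [Group K] [Finite K],
    Nat.card K ≤ k → IsPGroup r K → ¬ 2 ∣ Nat.card K → ∀ (f g : K ≃* K), (∀ x, f (f x) = x) →
      (∀ x, g (g x) = x) → (∀ x, f (g x) = g (f x)) →
      Nat.card K ≤ Nat.card (fixed f) * Nat.card (fixed g) * Nat.card (fixed (f.trans g)) := by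
  intro k
  induction k with
  | zero => intro K _ _ hk; exact absurd hk (not_le.2 Nat.card_pos)
  | succ k ih =>
    intro K _ _ hk hr hodd f g hf hg hfg
    rcases subsingleton_or_nontrivial K with hs | hn
    · rw [Nat.card_unique]
      exact Nat.one_le_iff_ne_zero.2 (mul_ne_zero (mul_ne_zero Nat.card_pos.ne' Nat.card_pos.ne')
        Nat.card_pos.ne')
    set Z := Subgroup.center K with hZ
    have hZ1 : Z ≠ ⊥ := by
      haveI := IsPGroup.center_nontrivial hr
      exact (Subgroup.nontrivial_iff_ne_bot Z).1 inferInstance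
    have hinv : ∀ (e : K ≃* K), ∀ z ∈ Z, e z ∈ Z := fun e z hz => by
      rw [hZ, Subgroup.mem_center_iff] at hz ⊢
      intro w
      obtain ⟨w', rfl⟩ := e.surjective w
      rw [← map_mul, ← map_mul, hz]
    have hmapZ : ∀ e : K ≃* K, Z.map e.toMonoidHom = Z := fun e => by
      refine le_antisymm ?_ fun z hz => ⟨e.symm z, hinv e.symm z hz, e.apply_symm_apply z⟩
      rintro _ ⟨z, hz, rfl⟩
      exact hinv e z hz
    let q : (K ≃* K) → (K ⧸ Z) ≃* (K ⧸ Z) := fun e => QuotientGroup.congr Z Z e (hmapZ e)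
    have hqc : ∀ (e : K ≃* K) (x : K), q e (x : K ⧸ Z) = ((e x : K) : K ⧸ Z) := fun e x => rfl
    have hlt : Nat.card (K ⧸ Z) ≤ k := by
      have h1 := Subgroup.card_eq_card_quotient_mul_card_subgroup Z
      have h2 : 1 < Nat.card Z := (Subgroup.one_lt_card_iff_ne_bot Z).2 hZ1
      have h3 : 0 < Nat.card (K ⧸ Z) := Nat.card_pos
      nlinarith
    have hq2 : ¬ 2 ∣ Nat.card (K ⧸ Z) := fun h => hodd (h.trans (Subgroup.card_quotient_dvd_card Z))
    have hZodd : ¬ 2 ∣ Nat.card Z := fun h => hodd (h.trans (Subgroup.card_subgroup_dvd_card Z))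
    have hI := ih (K ⧸ Z) hlt (hr.to_quotient Z) hq2 (q f) (q g)
      (fun x => QuotientGroup.induction_on x fun x => by rw [hqc, hqc, hf])
      (fun x => QuotientGroup.induction_on x fun x => by rw [hqc, hqc, hg])
      (fun x => QuotientGroup.induction_on x fun x => by rw [hqc, hqc, hqc, hqc, hfg])
    have hA := card_le_of_commute Z hodd (fun a ha b _ => (Subgroup.mem_center_iff.1 ha b).symm)
      f g hf hg hfg (hinv f) (hinv g)
    -- a fixed point of the quotient lifts
    have hmul : ∀ e : K ≃* K, (∀ x, e (e x) = x) →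
        Nat.card (fixed (q e)) * Nat.card (fixed e ⊓ Z : Subgroup K) ≤ Nat.card (fixed e) := by
      intro e he
      have hlift : ∀ c : fixed (q e), ∃ x : K, e x = x ∧ ((x : K) : K ⧸ Z) = (c : K ⧸ Z) := by
        rintro ⟨c, hc⟩
        induction c using QuotientGroup.induction_on with
        | H y =>
          rw [mem_fixed, hqc] at hc
          obtain ⟨x, hx, hxy⟩ := exists_fixed_lift Z hZodd e he (hinv e) (y := y)
            (QuotientGroup.eq.1 hc.symm)
          exact ⟨x, hx, (QuotientGroup.eq.2 hxy).symm⟩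
      choose s hs hs' using hlift
      rw [← Nat.card_prod]
      refine Nat.card_le_card_of_injective (fun p => (⟨s p.1 * (p.2 : K), ?_⟩ : fixed e))
        fun p p' h => ?_
      · exact (fixed e).mul_mem (hs p.1) p.2.2.1
      · have h' : s p.1 * (p.2 : K) = s p'.1 * (p'.2 : K) := congrArg Subtype.val h
        have h1 : (p.1 : K ⧸ Z) = (p'.1 : K ⧸ Z) := by
          have := congrArg (fun x : K => (x : K ⧸ Z)) h'
          simp only [QuotientGroup.mk_mul, hs', (QuotientGroup.eq_one_iff _).2 p.2.2.2,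
            (QuotientGroup.eq_one_iff _).2 p'.2.2.2, mul_one] at this
          exact this
        rw [Subtype.ext h1] at h'
        exact Prod.ext (Subtype.ext h1) (Subtype.ext (mul_left_cancel h'))
    have hft : ∀ x, (f.trans g) ((f.trans g) x) = x := fun x => by
      show g (f (g (f x))) = x
      rw [hfg, hf, hg]
    have hqt : fixed ((q f).trans (q g)) = fixed (q (f.trans g)) := by
      ext c
      induction c using QuotientGroup.induction_on with
      | H x => rfl
    rw [hqt] at hI
    calc Nat.card K = Nat.card (K ⧸ Z) * Nat.card Z :=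
          Subgroup.card_eq_card_quotient_mul_card_subgroup Z
      _ ≤ _ := Nat.mul_le_mul hI hA
      _ = (Nat.card (fixed (q f)) * Nat.card (fixed f ⊓ Z : Subgroup K)) *
            (Nat.card (fixed (q g)) * Nat.card (fixed g ⊓ Z : Subgroup K)) *
            (Nat.card (fixed (q (f.trans g))) * Nat.card (fixed (f.trans g) ⊓ Z : Subgroup K)) := by
          ring
      _ ≤ _ := Nat.mul_le_mul (Nat.mul_le_mul (hmul f hf) (hmul g hg)) (hmul _ hft)

section Odd

variable {H : Type u} [Group H] [Finite H]

/-- An odd normal subgroup is bounded by the centralisers of a four-group. -/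
theorem card_odd_le (O : Subgroup H) [O.Normal] (hodd : ¬ 2 ∣ Nat.card O) {u v : H}
    (hu : orderOf u = 2) (hv : orderOf v = 2) (huv : Commute u v) :
    Nat.card O ≤ Nat.card (Subgroup.centralizer ({u} : Set H)) *
      Nat.card (Subgroup.centralizer ({v} : Set H)) *
      Nat.card (Subgroup.centralizer ({u * v} : Set H)) := by
  classical
  set a := Nat.card (Subgroup.centralizer ({u} : Set H))
  set b := Nat.card (Subgroup.centralizer ({v} : Set H))
  set c := Nat.card (Subgroup.centralizer ({u * v} : Set H))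
  have habc : 0 < a * b * c := Nat.mul_pos (Nat.mul_pos Nat.card_pos Nat.card_pos) Nat.card_pos
  refine Nat.le_of_dvd habc ?_
  rw [← Nat.factorization_le_iff_dvd Nat.card_pos.ne' habc.ne']
  intro r
  by_cases hr : r.Prime
  swap
  · rw [Nat.factorization_eq_zero_of_not_prime _ hr]; exact Nat.zero_le _
  haveI : Fact r.Prime := ⟨hr⟩
  haveI : Fact (Nat.Prime 2) := ⟨Nat.prime_two⟩
  rw [← hr.pow_dvd_iff_le_factorization habc.ne']
  -- the four-group
  have huu : u * u = 1 := by rw [← pow_two, ← hu, pow_orderOf_eq_one]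
  have hvv : v * v = 1 := by rw [← pow_two, ← hv, pow_orderOf_eq_one]
  set E := Subgroup.closure ({u, v} : Set H) with hE
  haveI : IsMulCommutative E := Subgroup.isMulCommutative_closure (by
    intro p hp q hq
    simp only [Set.mem_insert_iff, Set.mem_singleton_iff] at hp hq
    rcases hp with rfl | rfl <;> rcases hq with rfl | rfl
    exacts [rfl, huv.eq, huv.eq.symm, rfl])
  have hsq : ∀ e ∈ E, e * e = 1 := by
    intro e he
    induction he using Subgroup.closure_induction with
    | mem p hp =>
      simp only [Set.mem_insert_iff, Set.mem_singleton_iff] at hp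
      rcases hp with rfl | rfl
      exacts [huu, hvv]
    | one => rw [one_mul]
    | mul p q hp hq ihp ihq =>
      have hpq : p * q = q * p := congrArg Subtype.val
        (IsMulCommutative.is_comm.comm (⟨p, hp⟩ : E) ⟨q, hq⟩)
      calc p * q * (p * q) = p * (q * p) * q := by group
        _ = p * p * (q * q) := by rw [← hpq]; group
        _ = 1 := by rw [ihp, ihq, one_mul]
    | inv p hp ihp => rw [← mul_inv_rev, ihp, inv_one]
  have hE2 : IsPGroup 2 E := fun e => ⟨1, Subtype.ext (by
    rw [pow_one, SubgroupClass.coe_pow, pow_two]; exact hsq _ e.2)⟩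
  -- an invariant Sylow subgroup of `O`
  let ψ : E →* MulAut O := (MulAut.conjNormal : H →* MulAut O).comp E.subtype
  letI : MulDistribMulAction E O := MulDistribMulAction.compHom O ψ
  have hnd : ¬ 2 ∣ Nat.card (Sylow r O) := fun h => by
    obtain ⟨T⟩ : Nonempty (Sylow r O) := inferInstance
    exact hodd (h.trans (T.card_dvd_index.trans (T : Subgroup O).index_dvd_card))
  obtain ⟨T, hT⟩ := hE2.nonempty_fixed_point_of_prime_not_dvd_card (Sylow r O) hnd
  have hTinv : ∀ e ∈ E, ∀ x ∈ (T : Subgroup O), (MulAut.conjNormal e) x ∈ (T : Subgroup O) := by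
    intro e he x hx
    have h1 := hT ⟨e, he⟩
    rw [← h1]
    exact ⟨x, hx, rfl⟩
  let act : ∀ e, e ∈ E → ((T : Subgroup O) ≃* (T : Subgroup O)) := fun e he =>
    { toFun := fun x => ⟨MulAut.conjNormal e (x : O), hTinv e he _ x.2⟩
      invFun := fun x => ⟨MulAut.conjNormal e⁻¹ (x : O), hTinv _ (E.inv_mem he) _ x.2⟩
      left_inv := fun x => Subtype.ext (Subtype.ext (by simp [mul_assoc]))
      right_inv := fun x => Subtype.ext (Subtype.ext (by simp [mul_assoc]))
      map_mul' := fun x y => Subtype.ext (map_mul _ _ _) }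
  have hu' : u ∈ E := Subgroup.subset_closure (Set.mem_insert _ _)
  have hv' : v ∈ E := Subgroup.subset_closure (Set.mem_insert_of_mem _ rfl)
  have hiv : ∀ e (he : e ∈ E) (x : (T : Subgroup O)), act e he (act e he x) = x := fun e he x => by
    apply Subtype.ext; apply Subtype.ext
    show e * (e * ((x : O) : H) * e⁻¹) * e⁻¹ = ((x : O) : H)
    calc e * (e * ((x : O) : H) * e⁻¹) * e⁻¹ = e * e * ((x : O) : H) * (e * e)⁻¹ := by group
      _ = _ := by rw [hsq e he, one_mul, inv_one, mul_one]
  have hTodd : ¬ 2 ∣ Nat.card (T : Subgroup O) := fun h =>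
    hodd (h.trans (Subgroup.card_subgroup_dvd_card _))
  have hB := card_le_fixed (r := r) _ (T : Subgroup O) le_rfl T.2 hTodd (act u hu') (act v hv')
    (hiv u hu') (hiv v hv') (fun x => by
      apply Subtype.ext; apply Subtype.ext
      show u * (v * ((x : O) : H) * v⁻¹) * u⁻¹ = v * (u * ((x : O) : H) * u⁻¹) * v⁻¹
      calc u * (v * ((x : O) : H) * v⁻¹) * u⁻¹ = u * v * ((x : O) : H) * (u * v)⁻¹ := by group
        _ = _ := by rw [huv.eq]; group)
  have hdvd : ∀ (f : (T : Subgroup O) ≃* (T : Subgroup O)) (w : H),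
      (∀ x, f x = x → w * ((x : O) : H) * w⁻¹ = ((x : O) : H)) →
      ∃ k, Nat.card (fixed f) = r ^ k ∧ r ^ k ∣ Nat.card (Subgroup.centralizer ({w} : Set H)) := by
    intro f w hw
    obtain ⟨k, hk⟩ := IsPGroup.iff_card.1 (T.2.to_subgroup (fixed f))
    refine ⟨k, hk, hk ▸ ?_⟩
    let j : fixed f →* Subgroup.centralizer ({w} : Set H) :=
      { toFun := fun x => ⟨(((x : (T : Subgroup O)) : O) : H), by
          rw [Subgroup.mem_centralizer_singleton_iff]
          exact (mul_inv_eq_iff_eq_mul.1 (hw _ x.2)).symm⟩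
        map_one' := rfl
        map_mul' := fun _ _ => rfl }
    exact Subgroup.card_dvd_of_injective j fun x y e => by
      apply Subtype.ext; apply Subtype.ext; apply Subtype.ext
      exact congrArg (fun t : Subgroup.centralizer ({w} : Set H) => (t : H)) e
  obtain ⟨k1, e1, d1⟩ := hdvd (act u hu') u fun x hx => congrArg (fun t : (T : Subgroup O) => ((t : O) : H)) hx
  obtain ⟨k2, e2, d2⟩ := hdvd (act v hv') v fun x hx => congrArg (fun t : (T : Subgroup O) => ((t : O) : H)) hx
  obtain ⟨k3, e3, d3⟩ := hdvd ((act u hu').trans (act v hv')) (u * v) fun x hx => by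
    have := congrArg (fun t : (T : Subgroup O) => ((t : O) : H)) hx
    change v * (u * ((x : O) : H) * u⁻¹) * v⁻¹ = _ at this
    rw [huv.eq]
    calc v * u * ((x : O) : H) * (v * u)⁻¹ = v * (u * ((x : O) : H) * u⁻¹) * v⁻¹ := by group
      _ = _ := this
  rw [e1, e2, e3, T.card_eq_multiplicity, ← pow_add, ← pow_add,
    Nat.pow_le_pow_iff_right hr.one_lt] at hB
  exact (pow_dvd_pow r hB).trans (by rw [pow_add, pow_add]; exact mul_dvd_mul (mul_dvd_mul d1 d2) d3)

end Odd

section Minimal

variable {H : Type u} [Group H] [Finite H]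

/-- A minimal normal subgroup of even order whose group has trivial odd core. -/
theorem card_minimal_le (N : Subgroup H) [N.Normal] (hmin : ∀ R : Subgroup H, R.Normal → R ≤ N → R = ⊥ ∨ R = N)
    (hN : N ≠ ⊥) (hO : ∀ R : Subgroup H, R.Normal → ¬ 2 ∣ Nat.card R → R = ⊥) {a c : ℕ}
    (ha : (Nat.card H).factorization 2 ≤ a) {u : H} (hu : orderOf u = 2)
    (hc : Nat.card (Subgroup.centralizer ({u} : Set H)) ≤ c) :
    Nat.card N ≤ (Nat.factorial (2 * c ^ 2)) ^ a + 2 ^ a + c := by
  classical
  haveI := Fintype.ofFinite H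
  haveI : Fact (Nat.Prime 2) := ⟨Nat.prime_two⟩
  set bnd := Nat.factorial (2 * c ^ 2) with hbnd
  have hb1 : 0 < bnd := Nat.factorial_pos _
  have hNv : (Nat.card N).factorization 2 ≤ a :=
    le_trans ((Nat.factorization_le_iff_dvd Nat.card_pos.ne' Nat.card_pos.ne').2
      (Subgroup.card_subgroup_dvd_card N) 2) ha
  have hNeven : 2 ∣ Nat.card N := by
    by_contra h
    exact hN (hO N inferInstance h)
  -- `H`-invariant subgroups of `N` are trivial
  have hinvariant : ∀ R : Subgroup N,
      (∀ (h : H), ∀ x ∈ R, (MulAut.conjNormal h) x ∈ R) → R = ⊥ ∨ R = ⊤ := by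
    intro R hR
    have hn : (R.map N.subtype).Normal := ⟨by
      rintro _ ⟨x, hx, rfl⟩ h
      exact ⟨MulAut.conjNormal h x, hR h x hx, by simp⟩⟩
    rcases hmin _ hn (Subgroup.map_subtype_le R) with e | e
    · exact Or.inl ((Subgroup.map_eq_bot_iff_of_injective R N.subtype_injective).1 e)
    · refine Or.inr (eq_top_iff.2 fun x _ => ?_)
      obtain ⟨y, hy, hxy⟩ := e.ge x.2
      exact (N.subtype_injective hxy) ▸ hy
  by_cases hab : ∀ p q : N, p * q = q * p
  · -- elementary abelian
    haveI : IsMulCommutative N := ⟨⟨hab⟩⟩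
    let R : Subgroup N :=
      { carrier := {x | x ^ 2 ^ (Nat.card N).factorization 2 = 1}
        one_mem' := one_pow _
        mul_mem' := fun {p q} hp hq => by
          show (p * q) ^ _ = 1
          rw [(show Commute p q from hab p q).mul_pow, show p ^ _ = 1 from hp,
            show q ^ _ = 1 from hq, one_mul]
        inv_mem' := fun {p} hp => by
          show p⁻¹ ^ _ = 1
          rw [inv_pow, show p ^ _ = 1 from hp, inv_one] }
    rcases hinvariant R (fun h x hx => by
        show (MulAut.conjNormal h x) ^ _ = 1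
        rw [← map_pow, show x ^ _ = 1 from hx, map_one]) with e | e
    · exfalso
      obtain ⟨x, hx⟩ := exists_prime_orderOf_dvd_card' (G := N) 2 hNeven
      have hxR : x ∈ R := by
        show x ^ _ = 1
        rw [← orderOf_dvd_iff_pow_eq_one, hx]
        exact dvd_pow_self 2 (Nat.prime_two.factorization_pos_of_dvd Nat.card_pos.ne' hNeven).ne'
      rw [e, Subgroup.mem_bot] at hxR
      rw [hxR, orderOf_one] at hx
      omega
    · have hp : IsPGroup 2 N := fun x =>
        ⟨(Nat.card N).factorization 2, show x ∈ R by rw [e]; exact Subgroup.mem_top x⟩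
      obtain ⟨k, hk⟩ := IsPGroup.iff_card.1 hp
      have : k ≤ a := by
        rw [hk, Nat.factorization_pow_self Nat.prime_two] at hNv
        exact hNv
      rw [hk]
      have := Nat.pow_le_pow_right two_pos this
      omega
  -- non-abelian
  have hZ : Subgroup.center N = ⊥ := by
    refine (hinvariant _ fun h x hx => ?_).resolve_right fun e => hab fun p q => ?_
    · rw [Subgroup.mem_center_iff] at hx ⊢
      intro w
      obtain ⟨w', rfl⟩ := (MulAut.conjNormal h : N ≃* N).surjective w
      rw [← map_mul, ← map_mul, hx]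
    · exact (Subgroup.mem_center_iff.1 (e.ge (Subgroup.mem_top p)) q).symm
  let U : Finset H := Finset.univ.image fun x : N => (x : H) * u * (x : H)⁻¹
  have hNU : Nat.card N ≤ U.card * c := by
    refine le_trans ?_ (Nat.mul_le_mul le_rfl hc)
    rw [← Nat.card_eq_finsetCard U]
    refine card_le_mul_of_fibres (fun x : N => (x : H) * u * (x : H)⁻¹) (fun x : N => (x : H))
      Subtype.val_injective (U : Set H) _ (fun x => Finset.mem_image_of_mem _ (Finset.mem_univ x))
      fun x y e => ?_
    rw [Subgroup.mem_centralizer_singleton_iff]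
    have e' : (x : H) * u * (x : H)⁻¹ = (y : H) * u * (y : H)⁻¹ := e
    calc (x : H)⁻¹ * y * u = (x : H)⁻¹ * ((y : H) * u * (y : H)⁻¹) * y := by group
      _ = u * ((x : H)⁻¹ * y) := by rw [← e']; group
  by_cases hU : U.card ≤ 1
  · calc Nat.card N ≤ U.card * c := hNU
      _ ≤ 1 * c := Nat.mul_le_mul hU le_rfl
      _ ≤ _ := (one_mul c).le.trans (Nat.le_add_left _ _)
  have huu : u * u = 1 := by rw [← pow_two, ← hu, pow_orderOf_eq_one]
  have hUspec : ∀ p ∈ U, p * p = 1 ∧ ∃ x : N, (x : H) * u * (x : H)⁻¹ = p := by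
    intro p hp
    obtain ⟨x, -, rfl⟩ := Finset.mem_image.1 hp
    exact ⟨by rw [show (x : H) * u * (x : H)⁻¹ * ((x : H) * u * (x : H)⁻¹) =
      (x : H) * (u * u) * (x : H)⁻¹ by group, huu, mul_one, mul_inv_cancel], x, rfl⟩
  have hprod : ∀ p ∈ U, ∀ q ∈ U, p * q ∈ N := by
    intro p hp q hq
    obtain ⟨-, x, rfl⟩ := hUspec p hp
    obtain ⟨-, y, rfl⟩ := hUspec q hq
    have huinv : u⁻¹ = u := inv_eq_of_mul_eq_one_left huu
    rw [show (x : H) * u * (x : H)⁻¹ * ((y : H) * u * (y : H)⁻¹) =
      (x : H) * (u * ((x : H)⁻¹ * y) * u⁻¹) * (y : H)⁻¹ * ((y : H) * (u * u) * (y : H)⁻¹) by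
        group, huu, mul_one, mul_inv_cancel, mul_one]
    exact N.mul_mem (N.mul_mem x.2 (Subgroup.Normal.conj_mem inferInstance _
      (N.mul_mem (N.inv_mem x.2) y.2) u)) (N.inv_mem y.2)
  let T : Finset N := Finset.univ.filter fun g => g ≠ 1
  obtain ⟨g, hg1, hg⟩ : ∃ g : N, g ≠ 1 ∧
      U.card * U.card ≤ 2 * Nat.card N * Nat.card (Subgroup.centralizer ({g} : Set N)) := by
    by_contra hcon
    push Not at hcon
    let π : H × H → N := fun p => if h : p.1 * p.2 ∈ N then ⟨p.1 * p.2, h⟩ else 1
    have hfib : ∀ g ∈ T, (U.offDiag.filter fun p => π p = g).card ≤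
        Nat.card (Subgroup.centralizer ({g} : Set N)) := by
      intro g hg
      by_cases hne : (U.offDiag.filter fun p => π p = g).Nonempty
      swap
      · rw [Finset.not_nonempty_iff_eq_empty.1 hne, Finset.card_empty]; exact Nat.zero_le _
      obtain ⟨p0, hp0⟩ := hne
      have hspec : ∀ p ∈ U.offDiag.filter (fun p => π p = g),
          p.1 ∈ U ∧ p.1 * p.2 = (g : H) ∧ p.1 * (g : H) * p.1 = (g : H)⁻¹ := by
        intro p hp
        obtain ⟨hp, hpg⟩ := Finset.mem_filter.1 hp
        obtain ⟨h1, h2, -⟩ := Finset.mem_offDiag.1 hp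
        have e : p.1 * p.2 = (g : H) := by
          rw [← hpg]
          simp [π, hprod _ h1 _ h2]
        refine ⟨h1, e, ?_⟩
        rw [← e, ← mul_assoc, (hUspec _ h1).1, one_mul, mul_inv_rev,
          inv_eq_of_mul_eq_one_left (hUspec _ h1).1, inv_eq_of_mul_eq_one_left (hUspec _ h2).1]
      obtain ⟨hp01, hp02, hp03⟩ := hspec p0 hp0
      rw [← Nat.card_eq_finsetCard]
      refine Nat.card_le_card_of_injective (fun p => ⟨⟨p0.1 * p.1.1, hprod _ hp01 _ (hspec _ p.2).1⟩, ?_⟩) ?_
      · obtain ⟨h1, -, h3⟩ := hspec _ p.2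
        rw [Subgroup.mem_centralizer_singleton_iff]
        apply Subtype.ext
        show p0.1 * p.1.1 * (g : H) = (g : H) * (p0.1 * p.1.1)
        have i0 := (hUspec _ hp01).1
        have i1 := (hUspec _ h1).1
        calc p0.1 * p.1.1 * (g : H) = p0.1 * (p.1.1 * (g : H) * p.1.1) * p.1.1 := by
              rw [mul_assoc p0.1, mul_assoc p0.1, mul_assoc _ p.1.1 p.1.1, i1, mul_one]
          _ = p0.1 * (p0.1 * (g : H) * p0.1) * p.1.1 := by rw [h3, hp03]
          _ = (g : H) * (p0.1 * p.1.1) := by
              rw [← mul_assoc, ← mul_assoc, i0, one_mul, mul_assoc]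
      · intro p q e
        have e' : p0.1 * p.1.1 = p0.1 * q.1.1 := congrArg (fun t => ((t : N) : H)) (congrArg Subtype.val e)
        have h1 := mul_left_cancel e'
        have h2 : p.1.1 * p.1.2 = q.1.1 * q.1.2 := (hspec _ p.2).2.1.trans (hspec _ q.2).2.1.symm
        rw [h1] at h2
        exact Subtype.ext (Prod.ext h1 (mul_left_cancel h2))
    have hmaps : ∀ p ∈ U.offDiag, π p ∈ T := by
      intro p hp
      obtain ⟨h1, h2, hne⟩ := Finset.mem_offDiag.1 hp
      refine Finset.mem_filter.2 ⟨Finset.mem_univ _, fun e => hne ?_⟩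
      have e' : p.1 * p.2 = 1 := by
        have := congrArg Subtype.val e
        simpa [π, hprod _ h1 _ h2] using this
      exact mul_left_cancel ((hUspec _ h1).1.trans e'.symm)
    have hsum := Finset.card_eq_sum_card_fiberwise hmaps
    have hlt : 2 * Nat.card N * U.offDiag.card < Nat.card N * (U.card * U.card) := by
      calc 2 * Nat.card N * U.offDiag.card
          = ∑ g ∈ T, 2 * Nat.card N * (U.offDiag.filter fun p => π p = g).card := by
            rw [hsum, Finset.mul_sum]
        _ < ∑ g ∈ T, U.card * U.card := by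
            refine Finset.sum_lt_sum_of_nonempty ?_ fun g hg => ?_
            · obtain ⟨x, hx⟩ := exists_prime_orderOf_dvd_card' (G := N) 2 hNeven
              exact ⟨x, Finset.mem_filter.2 ⟨Finset.mem_univ _, fun e => by
                rw [e, orderOf_one] at hx; omega⟩⟩
            · exact lt_of_le_of_lt (Nat.mul_le_mul le_rfl (hfib g hg))
                (hcon g (Finset.mem_filter.1 hg).2)
        _ ≤ Nat.card N * (U.card * U.card) := by
            rw [Finset.sum_const, smul_eq_mul, Nat.card_eq_fintype_card]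
            exact Nat.mul_le_mul (Finset.card_filter_le _ _ |>.trans (le_of_eq Finset.card_univ)) le_rfl
    have hoff : U.offDiag.card = U.card * U.card - U.card := Finset.offDiag_card U
    have h2le : U.card * U.card ≤ 2 * U.offDiag.card := by
      have : 2 * U.card ≤ U.card * U.card := Nat.mul_le_mul (by omega) le_rfl
      omega
    have : Nat.card N * (U.card * U.card) ≤ 2 * Nat.card N * U.offDiag.card := by
      rw [mul_comm 2 (Nat.card N), mul_assoc]
      exact Nat.mul_le_mul le_rfl h2le
    omega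
  -- a proper subgroup of bounded index
  set K := Subgroup.centralizer ({g} : Set N) with hK
  have hKidx : K.index ≤ 2 * c ^ 2 := by
    have h1 : Nat.card N * Nat.card N ≤ 2 * c ^ 2 * (Nat.card N * Nat.card K) := by
      calc Nat.card N * Nat.card N ≤ U.card * c * (U.card * c) := Nat.mul_le_mul hNU hNU
        _ = c ^ 2 * (U.card * U.card) := by ring
        _ ≤ c ^ 2 * (2 * Nat.card N * Nat.card K) := Nat.mul_le_mul le_rfl hg
        _ = _ := by ring
    have h2 : Nat.card K * K.index = Nat.card N := K.card_mul_index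
    have h3 : 0 < Nat.card K := Nat.card_pos
    have h4 : 0 < Nat.card N := Nat.card_pos
    have h5 : Nat.card N * (Nat.card K * K.index) ≤ Nat.card N * (2 * c ^ 2 * Nat.card K) := by
      rw [h2]
      linarith
    have h6 := Nat.le_of_mul_le_mul_left h5 h4
    rw [mul_comm (2 * c ^ 2)] at h6
    exact Nat.le_of_mul_le_mul_left h6 h3
  have hKtop : K ≠ ⊤ := fun e => hg1 (by
    have : g ∈ Subgroup.center N := Subgroup.mem_center_iff.2 fun w =>
      Subgroup.mem_centralizer_singleton_iff.1 (e ▸ Subgroup.mem_top w : w ∈ K)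
    rwa [hZ, Subgroup.mem_bot] at this)
  -- the least index of a proper normal subgroup
  let Q : ℕ → Prop := fun m => ∃ D : Subgroup N, D.Normal ∧ D.index = m ∧ 2 ≤ m
  have hQ : ∃ m, Q m ∧ m ≤ bnd := by
    refine ⟨K.normalCore.index, ⟨K.normalCore, inferInstance, rfl, ?_⟩, ?_⟩
    · have h1 : K.normalCore.index ≠ 1 := fun h => hKtop (eq_top_iff.2
        ((Subgroup.index_eq_one.1 h).ge.trans K.normalCore_le))
      have h2 : K.normalCore.index ≠ 0 := Subgroup.index_ne_zero_of_finite
      omega
    · rw [Subgroup.normalCore_eq_ker, Subgroup.index_ker]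
      refine le_trans (Nat.le_of_dvd Nat.card_pos (Subgroup.card_subgroup_dvd_card _)) ?_
      rw [Nat.card_perm, ← Subgroup.index_eq_card]
      exact Nat.factorial_le hKidx
  obtain ⟨m0, hm0, hm0b⟩ := hQ
  obtain ⟨m, ⟨D0, hD0n, hD0m, hm2⟩, hmin'⟩ : ∃ m, Q m ∧ ∀ m', Q m' → m ≤ m' :=
    ⟨Nat.find (p := Q) ⟨m0, hm0⟩, Nat.find_spec _, fun m' h => Nat.find_min' _ h⟩
  have hmb : m ≤ bnd := (hmin' m0 hm0).trans hm0b
  let F : Set (Subgroup N) := {D | D.Normal ∧ D.index = m}
  have hFinv : ∀ (h : H) (D : Subgroup N), D ∈ F →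
      D.comap (MulAut.conjNormal h : N ≃* N).toMonoidHom ∈ F := fun h D hD =>
    ⟨hD.1.comap _, by
      rw [Subgroup.index_comap_of_surjective (f := (MulAut.conjNormal h : N ≃* N).toMonoidHom) _
        (MulAut.conjNormal h : N ≃* N).surjective]
      exact hD.2⟩
  have hinfF : sInf F = ⊥ := by
    refine (hinvariant (sInf F) fun h x hx => ?_).resolve_right fun e => ?_
    · rw [Subgroup.mem_sInf] at hx ⊢
      intro D hD
      exact hx _ (hFinv h D hD)
    · have h1 : (⊤ : Subgroup N) ≤ D0 := e.ge.trans (sInf_le (show D0 ∈ F from ⟨hD0n, hD0m⟩))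
      rw [top_le_iff.1 h1, Subgroup.index_top] at hD0m
      omega
  have hmeven : 2 ∣ m := by
    by_contra hmo
    -- then `N` has odd order
    have hodd : ∀ s : Finset (Subgroup N), (∀ D ∈ s, D ∈ F) →
        ¬ 2 ∣ (s.inf id).index ∧ (s.inf id).Normal := by
      intro s hs
      induction s using Finset.induction with
      | empty =>
        rw [Finset.inf_empty, Subgroup.index_top]
        exact ⟨by omega, inferInstance⟩
      | insert D s _ ih =>
        rw [Finset.inf_insert, id]
        obtain ⟨h1, h2⟩ := ih fun D' hD' => hs D' (Finset.mem_insert_of_mem hD')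
        obtain ⟨h3, h4⟩ := hs D (Finset.mem_insert_self _ _)
        haveI := h2
        haveI := h3
        refine ⟨fun h => ?_, inferInstance⟩
        rw [← Subgroup.relIndex_mul_index (inf_le_right : D ⊓ s.inf id ≤ s.inf id),
          Subgroup.inf_relIndex_right] at h
        rcases Nat.prime_two.dvd_mul.1 h with h' | h'
        · exact hmo (h4 ▸ h'.trans (Subgroup.relIndex_dvd_index_of_normal D (s.inf id)))
        · exact h1 h'
    haveI : Finite (Subgroup N) := inferInstance
    obtain ⟨h1, -⟩ := hodd F.toFinite.toFinset fun D hD => (Set.Finite.mem_toFinset _).1 hD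
    have h2 : F.toFinite.toFinset.inf id = ⊥ := by
      rw [← hinfF, Finset.inf_id_eq_sInf, Set.Finite.coe_toFinset]
    rw [h2, Subgroup.index_bot] at h1
    exact h1 hNeven
  -- each step cuts the 2-part
  have key : ∀ (k : ℕ) (T : Subgroup N), T.Normal → (Nat.card T).factorization 2 ≤ k →
      Nat.card T ≤ bnd ^ k := by
    intro k
    induction k with
    | zero =>
      intro T hTn hT
      by_contra hne
      obtain ⟨D, hDn, hDm, hTD⟩ : ∃ D : Subgroup N, D.Normal ∧ D.index = m ∧ ¬ T ≤ D := by
        by_contra hno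
        push Not at hno
        refine hne ?_
        have : T ≤ sInf F := le_sInf fun D hD => hno D hD.1 hD.2
        rw [hinfF, le_bot_iff] at this
        rw [this, Subgroup.card_bot, pow_zero]
      haveI := hDn
      have hrel : D.relIndex T ∣ m := hDm ▸ Subgroup.relIndex_dvd_index_of_normal D T
      have hsup : T ⊔ D = ⊤ := by
        by_contra hs
        haveI := hTn
        have hlt : D < T ⊔ D := lt_of_le_of_ne le_sup_right fun e => hTD (e ▸ le_sup_left)
        have h1 := Subgroup.index_strictAnti hlt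
        have h2 : (T ⊔ D).index ≠ 1 := fun e => hs (Subgroup.index_eq_one.1 e)
        have h3 : (T ⊔ D).index ≠ 0 := Subgroup.index_ne_zero_of_finite
        have := hmin' _ ⟨T ⊔ D, inferInstance, rfl, by omega⟩
        omega
      have hrel' : D.relIndex T = m := by
        rw [← Subgroup.relIndex_sup_right, hsup, Subgroup.relIndex_top_right, hDm]
      have hdiv : 2 ∣ Nat.card T := by
        refine hmeven.trans ?_
        rw [← hrel']
        exact Subgroup.index_dvd_card _
      have := Nat.prime_two.factorization_pos_of_dvd Nat.card_pos.ne' hdiv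
      omega
    | succ k ih =>
      intro T hTn hT
      haveI := hTn
      by_cases hle : T ≤ sInf F
      · rw [hinfF, le_bot_iff] at hle
        rw [hle, Subgroup.card_bot]
        exact Nat.one_le_pow _ _ hb1
      obtain ⟨D, hD, hTD⟩ : ∃ D ∈ F, ¬ T ≤ D := by
        by_contra hno
        push Not at hno
        exact hle (le_sInf hno)
      haveI := hD.1
      have hsup : T ⊔ D = ⊤ := by
        by_contra hs
        have hlt : D < T ⊔ D := lt_of_le_of_ne le_sup_right fun e => hTD (e ▸ le_sup_left)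
        have h1 := Subgroup.index_strictAnti hlt
        have h2 : (T ⊔ D).index ≠ 1 := fun e => hs (Subgroup.index_eq_one.1 e)
        have h3 : (T ⊔ D).index ≠ 0 := Subgroup.index_ne_zero_of_finite
        have := hmin' _ ⟨T ⊔ D, inferInstance, rfl, by omega⟩
        have := hD.2
        omega
      have hrel' : D.relIndex T = m := by
        rw [← Subgroup.relIndex_sup_right, hsup, Subgroup.relIndex_top_right, hD.2]
      have hcard : Nat.card T = Nat.card (D ⊓ T : Subgroup N) * m := by
        have h1 := Subgroup.relIndex_mul_relIndex ⊥ (D ⊓ T) T bot_le inf_le_right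
        rw [Subgroup.relIndex_bot_left, Subgroup.relIndex_bot_left, Subgroup.inf_relIndex_right,
          hrel'] at h1
        exact h1.symm
      have hv : (Nat.card (D ⊓ T : Subgroup N)).factorization 2 ≤ k := by
        rw [hcard, Nat.factorization_mul Nat.card_pos.ne' (by omega), Finsupp.add_apply] at hT
        have := Nat.prime_two.factorization_pos_of_dvd (by omega) hmeven
        omega
      rw [hcard, pow_succ]
      exact Nat.mul_le_mul (ih _ inferInstance hv) hmb
  have hfin := key a ⊤ inferInstance (by rwa [Subgroup.card_top])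
  rw [Subgroup.card_top] at hfin
  exact hfin.trans ((Nat.le_add_right _ _).trans (Nat.le_add_right _ _))

end Minimal

/-- The bound. -/
def bound (c : ℕ) : ℕ → ℕ
  | 0 => c
  | a + 1 => c ^ 3 * ((Nat.factorial (2 * c ^ 2)) ^ (a + 1) + 2 ^ (a + 1) + c) * max c (bound c a)

theorem card_le_bound (c : ℕ) : ∀ (a : ℕ) (H : Type u) [Group H] [Finite H],
    (Nat.card H).factorization 2 ≤ a → ∀ u v : H, orderOf u = 2 → orderOf v = 2 → Commute u v →
      u ≠ v → Nat.card (Subgroup.centralizer ({u} : Set H)) ≤ c →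
      Nat.card (Subgroup.centralizer ({v} : Set H)) ≤ c →
      Nat.card (Subgroup.centralizer ({u * v} : Set H)) ≤ c → Nat.card H ≤ bound c a := by
  intro a
  induction a with
  | zero =>
    intro H _ _ ha u _ hu
    exfalso
    have := Nat.prime_two.factorization_pos_of_dvd (Nat.card_pos (α := H)).ne'
      (hu ▸ orderOf_dvd_natCard u)
    omega
  | succ a ih =>
    intro H _ _ ha u v hu hv huv hne cu cv cw
    classical
    haveI : Fact (Nat.Prime 2) := ⟨Nat.prime_two⟩
    set O := Cfsg.pPrimeCore 2 H with hO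
    haveI : O.Normal := inferInstance
    have hOodd : ¬ 2 ∣ Nat.card O := Constrained.pPrimeCore_not_dvd
    have huu : u * u = 1 := by rw [← pow_two, ← hu, pow_orderOf_eq_one]
    have hvv : v * v = 1 := by rw [← pow_two, ← hv, pow_orderOf_eq_one]
    have hwo : orderOf (u * v) = 2 := orderOf_eq_prime
      (by rw [huv.mul_pow, pow_two, pow_two, huu, hvv, one_mul])
      fun e => hne (mul_right_cancel (e.trans hvv.symm))
    have hnotO : ∀ w : H, orderOf w = 2 → w ∉ O := fun w hw hm => hOodd (by
      have := Subgroup.orderOf_dvd_natCard O hm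
      rwa [hw] at this)
    have hOle : Nat.card O ≤ c ^ 3 := (card_odd_le O hOodd hu hv huv).trans (by
      calc _ ≤ c * c * c := Nat.mul_le_mul (Nat.mul_le_mul cu cv) cw
        _ = c ^ 3 := by ring)
    -- the group modulo its odd core
    set π := QuotientGroup.mk' O
    have himg : ∀ w : H, orderOf w = 2 → orderOf (π w) = 2 := fun w hw => by
      refine orderOf_eq_prime ?_ ?_
      · rw [← map_pow, ← hw, pow_orderOf_eq_one, map_one]
      · exact fun e => hnotO w hw ((QuotientGroup.eq_one_iff w).1 e)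
    have hOtriv : ∀ R : Subgroup (H ⧸ O), R.Normal → ¬ 2 ∣ Nat.card R → R = ⊥ := fun R hR hR2 => by
      rw [← le_bot_iff, ← Constrained.pPrimeCore_quotient_pPrimeCore (p := 2) (G := H)]
      exact Constrained.le_pPrimeCore_of_not_dvd hR hR2
    have hva : (Nat.card (H ⧸ O)).factorization 2 ≤ a + 1 :=
      le_trans ((Nat.factorization_le_iff_dvd Nat.card_pos.ne' Nat.card_pos.ne').2
        (Subgroup.card_quotient_dvd_card O) 2) ha
    have cu' := (card_centralizer_quotient_le O u).trans cu
    have cv' := (card_centralizer_quotient_le O v).trans cv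
    have cw' := (card_centralizer_quotient_le O (u * v)).trans cw
    obtain ⟨N, ⟨hNn, hN1⟩, hNmin⟩ : ∃ N : Subgroup (H ⧸ O), (N.Normal ∧ N ≠ ⊥) ∧
        ∀ R : Subgroup (H ⧸ O), R.Normal ∧ R ≠ ⊥ → R ≤ N → R = N := by
      have hne' : {R : Subgroup (H ⧸ O) | R.Normal ∧ R ≠ ⊥}.Nonempty :=
        ⟨⊤, inferInstance, fun e => hnotO u hu ((QuotientGroup.eq_one_iff u).1
          (Subgroup.mem_bot.1 (e.le (Subgroup.mem_top (π u)))))⟩
      obtain ⟨N, hN⟩ := (Set.toFinite _).exists_minimal hne'
      exact ⟨N, hN.1, fun R hR hle => le_antisymm hle (hN.2 hR hle)⟩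
    haveI := hNn
    have hNle := card_minimal_le N
      (fun R hR hle => by
        by_cases hR1 : R = ⊥
        · exact Or.inl hR1
        · exact Or.inr (hNmin R ⟨hR, hR1⟩ hle))
      hN1 hOtriv hva (himg u hu) cu'
    have hQle : Nat.card ((H ⧸ O) ⧸ N) ≤ max c (bound c a) := by
      by_cases h1 : π u ∈ N
      · exact ((card_quotient_le_of_mem N h1).trans cu').trans (le_max_left _ _)
      by_cases h2 : π v ∈ N
      · exact ((card_quotient_le_of_mem N h2).trans cv').trans (le_max_left _ _)
      by_cases h3 : π (u * v) ∈ N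
      · exact ((card_quotient_le_of_mem N h3).trans cw').trans (le_max_left _ _)
      refine le_trans (ih ((H ⧸ O) ⧸ N) ?_ (π u : (H ⧸ O) ⧸ N) (π v : (H ⧸ O) ⧸ N) ?_ ?_ ?_ ?_
        ((card_centralizer_quotient_le N (π u)).trans cu')
        ((card_centralizer_quotient_le N (π v)).trans cv') ?_) (le_max_right _ _)
      · have hd : 2 ∣ Nat.card N := by
          by_contra h
          exact hN1 (hOtriv N hNn h)
        have e := Subgroup.card_eq_card_quotient_mul_card_subgroup N
        rw [e, Nat.factorization_mul Nat.card_pos.ne' Nat.card_pos.ne', Finsupp.add_apply] at hva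
        have := Nat.prime_two.factorization_pos_of_dvd Nat.card_pos.ne' hd
        omega
      · refine orderOf_eq_prime ?_ fun e => h1 ((QuotientGroup.eq_one_iff _).1 e)
        rw [← QuotientGroup.mk_pow, ← himg u hu, pow_orderOf_eq_one, QuotientGroup.mk_one]
      · refine orderOf_eq_prime ?_ fun e => h2 ((QuotientGroup.eq_one_iff _).1 e)
        rw [← QuotientGroup.mk_pow, ← himg v hv, pow_orderOf_eq_one, QuotientGroup.mk_one]
      · show (π u : (H ⧸ O) ⧸ N) * (π v : (H ⧸ O) ⧸ N) = (π v : (H ⧸ O) ⧸ N) * (π u : (H ⧸ O) ⧸ N)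
        rw [← QuotientGroup.mk_mul, ← map_mul, huv.eq, map_mul, QuotientGroup.mk_mul]
      · intro e
        refine h3 ((QuotientGroup.eq_one_iff _).1 ?_)
        rw [map_mul, QuotientGroup.mk_mul, e, ← QuotientGroup.mk_mul, ← map_mul, hvv, map_one,
          QuotientGroup.mk_one]
      · rw [← QuotientGroup.mk_mul, ← map_mul]
        exact (card_centralizer_quotient_le N _).trans cw'
    calc Nat.card H = Nat.card (H ⧸ O) * Nat.card O :=
          Subgroup.card_eq_card_quotient_mul_card_subgroup O
      _ = Nat.card O * (Nat.card N * Nat.card ((H ⧸ O) ⧸ N)) := by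
          rw [Subgroup.card_eq_card_quotient_mul_card_subgroup N]; ring
      _ ≤ c ^ 3 * (((Nat.factorial (2 * c ^ 2)) ^ (a + 1) + 2 ^ (a + 1) + c) * max c (bound c a)) :=
          Nat.mul_le_mul hOle (Nat.mul_le_mul hNle hQle)
      _ = bound c (a + 1) := by rw [bound]; ring

end CfsgLib.Deficiency
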